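import Cfsg.Agent.H614.Chars

/-!
# S4884: values of the characters of `S_n` at superincreasing cycle types (helper722)

`SI s` : every part of `s` is larger than the sum of the later ones (binary digits of `n`);
`abs_le` : `|χ(w)| ≤ 1` for every irreducible character of `Perm α`, `w` of cycle type `s`.
-/

set_option autoImplicit false

namespace Cfsg.Agent.H722.WB

open Finset Cfsg Cfsg.Agent.H614

/-- superincreasing -/
def SI : List ℕ → Prop
  | [] => True
  | k :: s => s.sum < k ∧ SI s

variable {m : ℕ}

theorem FM_not_inj (s : Multiset ℕ) {β : Fin m → ℕ} (h : ¬ Function.Injective β) : FM s β = 0 :=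
  Alt.eq_zero_of_not_injective (fun w hw => by omega) (FM_alt s) h

theorem vac_abs_le (β : Fin m → ℕ) : |vac β| ≤ 1 := by
  unfold vac
  by_cases h : ∃ σ : Equiv.Perm (Fin m), β = fun i => ((σ i : Fin m) : ℕ)
  · obtain ⟨σ, rfl⟩ := h
    rw [Finset.sum_eq_single σ]
    · rw [if_pos rfl]
      unfold sg
      rcases Int.units_eq_one_or (Equiv.Perm.sign σ) with h1 | h1 <;> simp [h1]
    · intro τ _ hτ
      rw [if_neg]
      intro h1
      apply hτ
      ext i
      have := congrFun h1 i
      exact this.symm
    · intro h1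
      exact absurd (mem_univ _) h1
  · rw [Finset.sum_eq_zero]
    · simp
    · intro σ _
      rw [if_neg]
      exact fun h1 => h ⟨σ, h1⟩

theorem dn_inj_two {β : Fin m → ℕ} {k : ℕ} {j l : Fin m} (hjl : j ≠ l) (hβ : Function.Injective β)
    (hj : k ≤ β j) (hl : k ≤ β l) (h1 : Function.Injective (dn β j k)) (h2 : Function.Injective (dn β l k)) :
    Function.Injective (dn (dn β j k) l k) := by
  have e1 : ∀ i, i ≠ j → β i ≠ β j - k := by
    intro i hi h
    apply hi
    apply h1
    rw [dn_self, dn_ne _ _ hi, h]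
  have e2 : ∀ i, i ≠ l → β i ≠ β l - k := by
    intro i hi h
    apply hi
    apply h2
    rw [dn_self, dn_ne _ _ hi, h]
  have hv : ∀ i, dn (dn β j k) l k i = if i = l then β l - k else if i = j then β j - k else β i := by
    intro i
    by_cases hi : i = l
    · rw [hi, dn_self, dn_ne _ _ (Ne.symm hjl), if_pos rfl]
    · rw [dn_ne _ _ hi, if_neg hi]
      by_cases hi2 : i = j
      · rw [hi2, dn_self, if_pos rfl]
      · rw [dn_ne _ _ hi2, if_neg hi2]
  have hne : β j ≠ β l := fun h => hjl (hβ h)
  intro a b hab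
  rw [hv, hv] at hab
  by_cases ha : a = l <;> by_cases hb : b = l
  · rw [ha, hb]
  · rw [if_pos ha, if_neg hb] at hab
    by_cases hb2 : b = j
    · rw [if_pos hb2] at hab; omega
    · rw [if_neg hb2] at hab
      exact absurd hab.symm (e2 b hb)
  · rw [if_neg ha, if_pos hb] at hab
    by_cases ha2 : a = j
    · rw [if_pos ha2] at hab; omega
    · rw [if_neg ha2] at hab
      exact absurd hab (e2 a ha)
  · rw [if_neg ha, if_neg hb] at hab
    by_cases ha2 : a = j <;> by_cases hb2 : b = j
    · rw [ha2, hb2]
    · rw [if_pos ha2, if_neg hb2] at hab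
      exact absurd hab.symm (e1 b hb2)
    · rw [if_neg ha2, if_pos hb2] at hab
      exact absurd hab (e1 a ha2)
    · rw [if_neg ha2, if_neg hb2] at hab
      exact hβ hab

theorem sum_dn {β : Fin m → ℕ} {k : ℕ} {j : Fin m} (hj : k ≤ β j) : ∑ i, dn β j k i + k = ∑ i, β i := by
  classical
  have h1 := Finset.sum_erase_add (univ : Finset (Fin m)) (dn β j k) (mem_univ j)
  have h2 := Finset.sum_erase_add (univ : Finset (Fin m)) β (mem_univ j)
  have h3 : ∑ i ∈ univ.erase j, dn β j k i = ∑ i ∈ univ.erase j, β i :=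
    Finset.sum_congr rfl fun i hi => dn_ne _ _ (Finset.ne_of_mem_erase hi)
  rw [dn_self] at h1
  omega

/-- **Murnaghan-Nakayama for superincreasing cycle types** -/
theorem FM_abs_le (s : List ℕ) (hs : SI s) (β : Fin m → ℕ) : |FM (s : Multiset ℕ) β| ≤ 1 := by
  classical
  induction s generalizing β with
  | nil =>
    have : ((([] : List ℕ)) : Multiset ℕ) = 0 := rfl
    rw [this, FM_zero]
    exact vac_abs_le β
  | cons k s ih =>
    obtain ⟨hk, hs⟩ := hs
    by_cases hβ : Function.Injective β
    swap
    · rw [FM_not_inj _ hβ]; simp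
    by_cases hsum : ∑ i, β i = (k :: s : List ℕ).sum + ∑ i : Fin m, (i : ℕ)
    swap
    · rw [FM_eq_zero_of_sum _ (by simpa using hsum)]; simp
    rw [List.sum_cons] at hsum
    have h1 : ((k :: s : List ℕ) : Multiset ℕ) = k ::ₘ (s : Multiset ℕ) := rfl
    rw [h1, FM_cons]
    by_cases hex : ∃ j, (if k ≤ β j then FM (s : Multiset ℕ) (dn β j k) else 0) ≠ 0
    · obtain ⟨j, hj⟩ := hex
      rw [Finset.sum_eq_single j]
      · split_ifs
        · exact ih hs _
        · simp
      · intro l _ hlj
        by_contra hl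
        have hkj : k ≤ β j := by
          by_contra h; rw [if_neg h] at hj; exact hj rfl
        have hkl : k ≤ β l := by
          by_contra h; rw [if_neg h] at hl; exact hl rfl
        rw [if_pos hkj] at hj
        rw [if_pos hkl] at hl
        have hij : Function.Injective (dn β j k) := by
          by_contra h; exact hj (FM_not_inj _ h)
        have hil : Function.Injective (dn β l k) := by
          by_contra h; exact hl (FM_not_inj _ h)
        have h2 := sum_le_of_injective (dn_inj_two (Ne.symm hlj) hβ hkj hkl hij hil)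
        have h3 := sum_dn (β := β) hkj
        have h4 : dn β j k l = β l := dn_ne _ _ hlj
        have h5 := sum_dn (β := dn β j k) (j := l) (k := k) (by rw [h4]; exact hkl)
        omega
      · intro h; exact absurd (mem_univ _) h
    · push Not at hex
      rw [Finset.sum_eq_zero fun j _ => hex j]
      simp

universe u

variable {α : Type u} [Fintype α] [DecidableEq α]

/-- **`|χ(w)| ≤ 1`** -/
theorem abs_le {χ : Equiv.Perm α → ℂ} (hχ : IsIrrCharacter (Equiv.Perm α) χ) {w : Equiv.Perm α} {s : List ℕ}
    (hs : SI s) (hw : ty w = (s : Multiset ℕ)) : ∃ n : ℤ, χ w = n ∧ |n| ≤ 1 := by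
  obtain ⟨β, -, -, rfl⟩ := irr_eq (m := Fintype.card α) le_rfl hχ
  exact ⟨FM (ty w) β, rfl, by rw [hw]; exact FM_abs_le s hs β⟩

end Cfsg.Agent.H722.WB
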